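import Cfsg.Agent.Lib.Helper13.Asch.Defs2
import Cfsg.Agent.Lib.Helper96.Asch.L0b

set_option autoImplicit false

/-! # Common lemmas for the pieces C4a-e and C5 -/

namespace Cfsg.Agent.Lib.Helper91.Asch

open Cfsg Cfsg.Geo Matrix Cfsg.Agent.Lib.Helper13.Asch
open scoped Kronecker MatrixGroups

variable {ι : Type} [Fintype ι] [DecidableEq ι] {F : Type*} [Field F]

/-- the scalar embedding `Fˣ → GL`. -/
def scHom (ι : Type) [Fintype ι] [DecidableEq ι] (F : Type*) [Field F] : Fˣ →* GL ι F :=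
  Units.map (Matrix.scalar ι : F →+* Matrix ι ι F).toMonoidHom

lemma scHom_coe (c : Fˣ) : (scHom ι F c : Matrix ι ι F) = (c : F) • (1 : Matrix ι ι F) := by
  simp [scHom, Matrix.smul_one_eq_diagonal]

lemma scalars_eq_range : scalars ι F = (scHom ι F).range := rfl

lemma scHom_mem_scalars (c : Fˣ) : scHom ι F c ∈ scalars ι F := ⟨c, rfl⟩

lemma scHom_injective [Nonempty ι] : Function.Injective (scHom ι F) := by
  intro a b hab
  obtain ⟨i⟩ := ‹Nonempty ι›
  have h1 : (scHom ι F a : Matrix ι ι F) i i = (scHom ι F b : Matrix ι ι F) i i := by rw [hab]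
  rw [scHom_coe, scHom_coe] at h1
  apply Units.ext
  simpa using h1

lemma scHom_comm (c : Fˣ) (y : GL ι F) : scHom ι F c * y = y * scHom ι F c := by
  apply Units.ext
  rw [Units.val_mul, Units.val_mul, scHom_coe]
  simp

lemma mem_scalars_of_commute {R : Subgroup (GL ι F)} (henv : env R = ⊤) (x : GL ι F)
    (hx : ∀ y ∈ R, x * y = y * x) : x ∈ scalars ι F := by
  obtain ⟨c, hc⟩ := Cfsg.Agent.Lib.Helper96.Asch.scalar_of_commute henv (x : Matrix ι ι F)
    (fun y hy => by rw [← Units.val_mul, ← Units.val_mul, hx y hy])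
  rw [mem_scalars_iff]
  by_cases h0 : c = 0
  · refine ⟨1, ?_⟩
    have h1 : (x : Matrix ι ι F) = 0 := by rw [hc, h0, zero_smul]
    have h2 : (1 : Matrix ι ι F) = 0 := by
      rw [← Units.mul_inv x, h1, Matrix.zero_mul]
    rw [h1, h2, smul_zero]
  · exact ⟨Units.mk0 c h0, hc⟩

lemma exists_not_scalar (hι : 2 ≤ Fintype.card ι) {R : Subgroup (GL ι F)} (henv : env R = ⊤) :
    ∃ x ∈ R, x ∉ scalars ι F := by
  by_contra hcon
  push Not at hcon
  obtain ⟨i, j, hij⟩ := Fintype.exists_pair_of_one_lt_card (by omega : 1 < Fintype.card ι)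
  obtain ⟨c, hc⟩ := Cfsg.Agent.Lib.Helper96.Asch.scalar_of_commute henv (Matrix.single i j (1 : F))
    (fun y hy => by
      obtain ⟨d, hd⟩ := (mem_scalars_iff y).1 (hcon y hy)
      rw [hd]
      simp)
  have h1 := congrFun (congrFun hc i) j
  simp [hij] at h1

/-- a nontrivial root of unity coming from a nontrivial commutator. -/
lemma RData.exists_root (hι : 2 ≤ Fintype.card ι) {H R : Subgroup (GL ι F)} {r : ℕ}
    (h : RData H R r) : ∃ γ : Fˣ, γ ≠ 1 ∧ γ ^ (r * Nat.gcd 2 r) = 1 := by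
  have : Nonempty ι := Fintype.card_pos_iff.1 (by omega)
  obtain ⟨x, hx, hxs⟩ := exists_not_scalar hι h.envTop
  obtain ⟨y, hy, hxy⟩ : ∃ y ∈ R, x * y ≠ y * x := by
    by_contra hcon
    push Not at hcon
    exact hxs (mem_scalars_of_commute h.envTop x hcon)
  obtain ⟨γ, hγ⟩ := h.comm x hx y hy
  have hγ' : scHom ι F γ = x * y * x⁻¹ * y⁻¹ := hγ
  refine ⟨γ, ?_, ?_⟩
  · rintro rfl
    rw [map_one] at hγ'
    apply hxy
    calc x * y = (x * y * x⁻¹ * y⁻¹) * (y * x) := by group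
      _ = y * x := by rw [← hγ', one_mul]
  · apply scHom_injective (ι := ι)
    rw [map_pow, map_one, hγ']
    exact h.exp _ (R.mul_mem (R.mul_mem (R.mul_mem hx hy) (R.inv_mem hx)) (R.inv_mem hy))

lemma RData.inf_scalars_eq {H R : Subgroup (GL ι F)} {r : ℕ} [Nonempty ι] (h : RData H R r) :
    R ⊓ scalars ι F = (rootsOfUnity (r * Nat.gcd 2 r) F).map (scHom ι F) := by
  ext x
  constructor
  · rintro ⟨hx, c, rfl⟩
    refine ⟨c, ?_, rfl⟩
    rw [SetLike.mem_coe, mem_rootsOfUnity]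
    apply scHom_injective (ι := ι)
    rw [map_pow, map_one]
    exact h.exp _ hx
  · rintro ⟨c, hc, rfl⟩
    rw [SetLike.mem_coe, mem_rootsOfUnity] at hc
    refine ⟨h.sc _ (scHom_mem_scalars c) ?_, scHom_mem_scalars c⟩
    rw [← map_pow, hc, map_one]

lemma RData.card_inf_scalars {H R : Subgroup (GL ι F)} {r : ℕ} [Nonempty ι] (h : RData H R r) :
    Nat.card (R ⊓ scalars ι F : Subgroup (GL ι F)) =
      Nat.card (rootsOfUnity (r * Nat.gcd 2 r) F) := by
  rw [RData.inf_scalars_eq h]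
  exact Subgroup.card_map_of_injective scHom_injective

lemma RData.pow_sq {H R : Subgroup (GL ι F)} {r : ℕ} (h : RData H R r) {x : GL ι F} (hx : x ∈ R) :
    x ^ (r ^ 2) = 1 := by
  obtain ⟨k, hk⟩ : r * Nat.gcd 2 r ∣ r ^ 2 := by
    rw [sq]; exact Nat.mul_dvd_mul_left _ (Nat.gcd_dvd_right 2 r)
  rw [hk, pow_mul, h.exp x hx, one_pow]

lemma RData.isPGroup {H R : Subgroup (GL ι F)} {r : ℕ} (h : RData H R r) : IsPGroup r R := by
  intro x
  refine ⟨2, ?_⟩
  apply Subtype.ext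
  rw [Subgroup.coe_pow, RData.pow_sq h x.2]
  rfl

lemma two_ne_zero_of_root {γ : Fˣ} (h1 : γ ≠ 1) (h4 : γ ^ 4 = 1) : (2 : F) ≠ 0 := by
  intro h2
  apply h1
  apply Units.ext
  have h5 : (γ : F) ^ 4 = 1 := by
    have := congrArg Units.val h4
    simpa using this
  have h6 : ((γ : F) - 1) ^ 4 = 0 := by
    linear_combination h5 + (1 - 2 * (γ : F) ^ 3 + 3 * (γ : F) ^ 2 - 2 * (γ : F)) * h2
  have h7 := pow_eq_zero_iff (by norm_num : (4 : ℕ) ≠ 0) |>.1 h6
  simpa using sub_eq_zero.1 h7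

end Cfsg.Agent.Lib.Helper91.Asch
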