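import Cfsg.Agent.Lib.Helper91.Asch.A1

set_option autoImplicit false

namespace Cfsg.Agent.Lib.Helper91.Asch

open Cfsg Cfsg.Geo Matrix Cfsg.Agent.Lib.Helper13.Asch
open scoped Kronecker MatrixGroups

variable {ι : Type} [Fintype ι] [DecidableEq ι] {F : Type*} [Field F]

theorem four_dvd_add_one {a : ℕ} (h1 : 4 ∣ a ^ 2 - 1) (h0 : 1 ≤ a) (h2 : ¬ 4 ∣ a - 1) :
    4 ∣ a + 1 := by
  have h3 : 1 ≤ a ^ 2 := Nat.one_le_pow _ _ h0
  have h4 : a ^ 2 % 4 = 1 := by omega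
  rw [Nat.pow_mod] at h4
  have h5 : a % 4 < 4 := Nat.mod_lt _ (by norm_num)
  interval_cases h : a % 4
  · simp at h4
  · omega
  · simp at h4
  · omega

/-- A2 -/
theorem exists_involution_of_minimal [Fintype F] {p e z : ℕ} (hmin : IsMinimalFieldFor z p e F)
    (he : Even e) (hz : z.Prime ∨ z = 4) (hz2 : z ≠ 2) :
    ∃ σ : F ≃+* F, σ ≠ RingEquiv.refl F ∧ (∀ a, σ (σ a) = a) ∧ ∀ c : F, c ^ z = 1 → c * σ c = 1 := by
  obtain ⟨hp, hchar, hF, hze, hmin'⟩ := hmin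
  have : Fact p.Prime := ⟨hp⟩
  obtain ⟨f, hf⟩ := he
  have he0 : e ≠ 0 := by
    intro h0
    rw [h0, pow_zero] at hF
    have := Fintype.one_lt_card (α := F)
    omega
  have hf0 : 0 < f := by omega
  have hfe : f < e := by omega
  have hpf : 1 ≤ p ^ f := Nat.one_le_pow _ _ hp.pos
  have hprod : p ^ e - 1 = (p ^ f - 1) * (p ^ f + 1) := by
    rw [hf, pow_add]
    obtain ⟨a, ha⟩ : ∃ a, p ^ f = a + 1 := ⟨p ^ f - 1, by omega⟩
    rw [ha]
    simp only [Nat.add_sub_cancel]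
    have : (a + 1) * (a + 1) = a * (a + 1 + 1) + 1 := by ring
    rw [this, Nat.add_sub_cancel]
  have hzdvd : z ∣ p ^ f + 1 := by
    rcases hz with hz | hz
    · rw [hprod] at hze
      rcases (hz.dvd_mul).1 hze with h | h
      · exact absurd h (hmin' f hf0 hfe)
      · exact h
    · subst hz
      apply four_dvd_add_one _ hpf (hmin' f hf0 hfe)
      rw [← pow_mul, mul_comm, two_mul, ← hf]
      exact hze
  refine ⟨iterateFrobeniusEquiv F p f, ?_, ?_, ?_⟩
  · intro h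
    obtain ⟨x, hx⟩ := exists_pow_ne hp hF hf0 hfe
    apply hx
    have h1 : iterateFrobeniusEquiv F p f x = RingEquiv.refl F x := by rw [h]
    rwa [iterateFrobeniusEquiv_def, RingEquiv.refl_apply] at h1
  · intro a
    rw [iterateFrobeniusEquiv_def, iterateFrobeniusEquiv_def, ← pow_mul, ← pow_add, ← hf, ← hF,
      FiniteField.pow_card]
  · intro c hc
    rw [iterateFrobeniusEquiv_def, ← pow_succ']
    obtain ⟨k, hk⟩ := hzdvd
    rw [hk, pow_mul, hc, one_pow]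

end Cfsg.Agent.Lib.Helper91.Asch
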