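import Cfsg.Agent.Lib.Helper91.Asch.C4Aux

set_option autoImplicit false

namespace Cfsg.Agent.Lib.Helper91.Asch

open Cfsg Cfsg.Geo Matrix Cfsg.Agent.Lib.Helper13.Asch
open scoped Kronecker MatrixGroups

variable {ι : Type} [Fintype ι] [DecidableEq ι] {F : Type*} [Field F]

/-- C4a -/
theorem RData.card_center [Finite F] {H R : Subgroup (GL ι F)} {r : ℕ} (h : RData H R r) :
    Nat.card (Subgroup.center R) = Nat.card (R ⊓ scalars ι F : Subgroup (GL ι F)) := by
  have h1 : (Subgroup.center R).map R.subtype = R ⊓ scalars ι F := by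
    ext x
    constructor
    · rintro ⟨y, hy, rfl⟩
      refine ⟨y.2, mem_scalars_of_commute h.envTop _ ?_⟩
      intro w hw
      have h2 := (Subgroup.mem_center_iff.1 hy) ⟨w, hw⟩
      exact (congrArg Subtype.val h2).symm
    · rintro ⟨hx, c, rfl⟩
      refine ⟨⟨_, hx⟩, ?_, rfl⟩
      rw [SetLike.mem_coe, Subgroup.mem_center_iff]
      intro w
      apply Subtype.ext
      exact (scHom_comm c w.1).symm
  rw [← h1]
  exact (Subgroup.card_map_of_injective R.subtype_injective).symm

end Cfsg.Agent.Lib.Helper91.Asch
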