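import Cfsg.Agent.Lib.Helper91.Asch.C4Aux

set_option autoImplicit false

namespace Cfsg.Agent.Lib.Helper91.Asch

open Cfsg Cfsg.Geo Matrix Cfsg.Agent.Lib.Helper13.Asch
open scoped Kronecker MatrixGroups

variable {ι : Type} [Fintype ι] [DecidableEq ι] {F : Type*} [Field F]

lemma gcd_two_of_ne {r : ℕ} (hp : r.Prime) (hr : r ≠ 2) : Nat.gcd 2 r = 1 :=
  (Nat.coprime_primes Nat.prime_two hp).2 (Ne.symm hr)

/-- for odd `r` there is a primitive `r`-th root of unity. -/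
theorem RData.exists_primitive_odd (hι : 2 ≤ Fintype.card ι) {H R : Subgroup (GL ι F)} {r : ℕ}
    (h : RData H R r) (hr : r ≠ 2) : ∃ γ : Fˣ, IsPrimitiveRoot γ r := by
  obtain ⟨γ, hγ1, hγ⟩ := RData.exists_root hι h
  rw [gcd_two_of_ne h.prime hr, mul_one] at hγ
  have := Fact.mk h.prime
  have h1 : orderOf γ = r := orderOf_eq_prime hγ hγ1
  exact ⟨γ, h1 ▸ IsPrimitiveRoot.orderOf γ⟩

/-- C4b -/
theorem RData.card_sc_odd [Finite F] (hι : 2 ≤ Fintype.card ι) {H R : Subgroup (GL ι F)} {r : ℕ}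
    (h : RData H R r) (hr : r ≠ 2) : Nat.card (R ⊓ scalars ι F : Subgroup (GL ι F)) = r := by
  have : Nonempty ι := Fintype.card_pos_iff.1 (by omega)
  rw [RData.card_inf_scalars h, gcd_two_of_ne h.prime hr, mul_one]
  obtain ⟨γ, hγ⟩ := RData.exists_primitive_odd hι h hr
  have : NeZero r := ⟨h.prime.ne_zero⟩
  exact hγ.card_rootsOfUnity'

end Cfsg.Agent.Lib.Helper91.Asch
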