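import Cfsg.Agent.Lib.Helper91.Asch.C4Aux

set_option autoImplicit false

namespace Cfsg.Agent.Lib.Helper91.Asch

open Cfsg Cfsg.Geo Matrix Cfsg.Agent.Lib.Helper13.Asch
open scoped Kronecker MatrixGroups

variable {ι : Type} [Fintype ι] [DecidableEq ι] {F : Type*} [Field F]

theorem RData.two_ne_zero (hι : 2 ≤ Fintype.card ι) {H R : Subgroup (GL ι F)}
    (h : RData H R 2) : (2 : F) ≠ 0 := by
  obtain ⟨γ, hγ1, hγ⟩ := RData.exists_root hι h
  exact two_ne_zero_of_root hγ1 (by simpa using hγ)

theorem neg_one_ne_one_of_two (h2 : (2 : F) ≠ 0) : (-1 : F) ≠ 1 := by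
  intro h
  apply h2
  linear_combination -h

theorem isPrimitiveRoot_four (h2 : (2 : F) ≠ 0) {i : F} (hi : i * i = -1) :
    IsPrimitiveRoot i 4 := by
  have h1 : orderOf i = 2 ^ (1 + 1) := by
    apply orderOf_eq_prime_pow
    · rw [pow_one, sq, hi]
      exact neg_one_ne_one_of_two h2
    · have : i ^ 2 ^ (1 + 1) = (i * i) * (i * i) := by ring
      rw [this, hi]; ring
  have h3 := IsPrimitiveRoot.orderOf i
  rw [h1] at h3
  exact h3

theorem sq_eq_one_of_pow_four {c : F} (hno : ¬ ∃ i : F, i * i = -1) (hc : c ^ 4 = 1) :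
    c * c = 1 := by
  have h1 : (c * c - 1) * (c * c + 1) = 0 := by linear_combination hc
  rcases mul_eq_zero.1 h1 with h | h
  · exact sub_eq_zero.1 h
  · exact absurd ⟨c, eq_neg_of_add_eq_zero_left h⟩ hno

/-- C4c -/
theorem RData.card_sc_two [Finite F] (hι : 2 ≤ Fintype.card ι) {H R : Subgroup (GL ι F)}
    (h : RData H R 2) :
    ((∃ i : F, i * i = -1) → Nat.card (R ⊓ scalars ι F : Subgroup (GL ι F)) = 4) ∧
    ((¬ ∃ i : F, i * i = -1) → Nat.card (R ⊓ scalars ι F : Subgroup (GL ι F)) = 2) := by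
  have : Nonempty ι := Fintype.card_pos_iff.1 (by omega)
  have h2 := RData.two_ne_zero hι h
  have h4 : 2 * Nat.gcd 2 2 = 4 := by norm_num
  rw [RData.card_inf_scalars h, h4]
  constructor
  · rintro ⟨i, hi⟩
    exact (isPrimitiveRoot_four h2 hi).card_rootsOfUnity
  · intro hno
    have h5 : rootsOfUnity 4 F = rootsOfUnity 2 F := by
      ext c
      rw [mem_rootsOfUnity, mem_rootsOfUnity]
      constructor
      · intro hc
        apply Units.ext
        have h6 : (c : F) ^ 4 = 1 := by
          have := congrArg Units.val hc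
          simpa using this
        have := sq_eq_one_of_pow_four hno h6
        simpa [sq] using this
      · intro hc
        have : c ^ 4 = (c ^ 2) ^ 2 := by rw [← pow_mul]
        rw [this, hc, one_pow]
    rw [h5]
    have h6 : orderOf (-1 : F) = 2 :=
      orderOf_eq_prime (by norm_num) (neg_one_ne_one_of_two h2)
    have h7 := IsPrimitiveRoot.orderOf (-1 : F)
    rw [h6] at h7
    exact h7.card_rootsOfUnity

end Cfsg.Agent.Lib.Helper91.Asch
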