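import Cfsg.Agent.Lib.Helper91.Asch.C4Aux
import Cfsg.Agent.Lib.Helper96.Asch.L10

set_option autoImplicit false

namespace Cfsg.Agent.Lib.Helper91.Asch

open Cfsg Cfsg.Geo Matrix Cfsg.Agent.Lib.Helper13.Asch
open scoped Kronecker MatrixGroups

variable {ι : Type} [Fintype ι] [DecidableEq ι] {F : Type*} [Field F]

/-- C4d -/
theorem RData.card_index [Finite F] (hι : 2 ≤ Fintype.card ι) {H R : Subgroup (GL ι F)} {r : ℕ}
    (h : RData H R r) : ∃ m : ℕ, 1 ≤ m ∧ Fintype.card ι = r ^ m ∧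
      Nat.card R = r ^ (2 * m) * Nat.card (R ⊓ scalars ι F : Subgroup (GL ι F)) := by
  have : Nonempty ι := Fintype.card_pos_iff.1 (by omega)
  have := Fact.mk h.prime
  have h1 := Cfsg.Agent.Lib.Helper96.Asch.card_eq_sq_mul R h.comm h.envTop
  obtain ⟨j, hj⟩ := (RData.isPGroup h).exists_card_eq
  have h2 : Fintype.card ι ∣ r ^ j := by
    rw [← hj, h1, sq, mul_assoc]
    exact Dvd.intro _ rfl
  obtain ⟨m, -, hm⟩ := (Nat.dvd_prime_pow h.prime).1 h2
  refine ⟨m, ?_, hm, ?_⟩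
  · by_contra h0
    have : m = 0 := by omega
    rw [this, pow_zero] at hm
    omega
  · rw [h1, hm, ← pow_mul, mul_comm m 2]

end Cfsg.Agent.Lib.Helper91.Asch
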