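import Cfsg.Agent.Lib.Helper91.Asch.C4Aux

set_option autoImplicit false

namespace Cfsg.Agent.Lib.Helper91.Asch

open Cfsg Cfsg.Geo Matrix Cfsg.Agent.Lib.Helper13.Asch
open scoped Kronecker MatrixGroups

variable {ι : Type} [Fintype ι] [DecidableEq ι] {F : Type*} [Field F]

/-- C4e -/
theorem RData.char_ne [Finite F] (hι : 2 ≤ Fintype.card ι) {H R : Subgroup (GL ι F)} {r : ℕ}
    (h : RData H R r) (p : ℕ) [CharP F p] : r ≠ p ∧ (Nat.card R : F) ≠ 0 := by
  have hrp : r ≠ p := by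
    rintro rfl
    obtain ⟨γ, hγ1, hγ⟩ := RData.exists_root hι h
    have := Fact.mk h.prime
    apply hγ1
    obtain ⟨k, hk⟩ : r * Nat.gcd 2 r ∣ r ^ 2 := by
      rw [sq]; exact Nat.mul_dvd_mul_left _ (Nat.gcd_dvd_right 2 r)
    have h1 : (γ : F) ^ (r ^ 2 * 1) = 1 := by
      rw [mul_one, hk, pow_mul, ← Units.val_pow_eq_pow_val, hγ]
      simp
    have : ExpChar F r := ExpChar.prime h.prime
    rw [ExpChar.pow_prime_pow_mul_eq_one_iff, pow_one] at h1
    exact Units.ext h1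
  refine ⟨hrp, ?_⟩
  have := Fact.mk h.prime
  obtain ⟨j, hj⟩ := (RData.isPGroup h).exists_card_eq
  rw [hj, Nat.cast_pow]
  apply pow_ne_zero
  intro h0
  rw [CharP.cast_eq_zero_iff F p r] at h0
  rcases (Nat.dvd_prime h.prime).1 h0 with h1 | h1
  · exact CharP.char_ne_one F p h1
  · exact hrp h1.symm

end Cfsg.Agent.Lib.Helper91.Asch
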