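import Cfsg.Agent.Lib.Helper13.Asch.Defs3
import Cfsg.Agent.Lib.Helper91.Asch.A2
import Cfsg.Agent.Lib.Helper91.Asch.C4a
import Cfsg.Agent.Lib.Helper91.Asch.C4b
import Cfsg.Agent.Lib.Helper91.Asch.C4c
import Cfsg.Agent.Lib.Helper91.Asch.C4d
import Cfsg.Agent.Lib.Helper91.Asch.C4e
import Cfsg.Agent.Lib.Helper96.Asch.L0c
import Cfsg.Agent.Lib.Helper96.Asch.L12a
import Cfsg.Agent.Lib.Helper55.Asch.L12b
import Cfsg.Agent.Lib.Helper55.Asch.L12c
import Cfsg.Agent.Lib.Helper55.Asch.L9a
import Cfsg.Agent.Lib.Helper55.Asch.L9b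
import Cfsg.Agent.Lib.Helper55.Asch.L9c
import Cfsg.Agent.Lib.Helper55.Asch.L9e
import Cfsg.Agent.Lib.Helper12.Asch.C3
import Cfsg.Agent.Lib.Helper35.Asch.L8
import Cfsg.Agent.Lib.Helper58.Asch.L11

set_option autoImplicit false

namespace Cfsg.Agent.Lib.Helper91.Asch

open Cfsg Cfsg.Geo Matrix Cfsg.Agent.Lib.Helper13.Asch
open scoped Kronecker MatrixGroups

variable {ι : Type} [Fintype ι] [DecidableEq ι] {F : Type*} [Field F]

theorem le_subgroupNormalizer {H R : Subgroup (GL ι F)} (h : Nrm H R) :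
    H ≤ subgroupNormalizer R := by
  intro x hx
  rw [subgroupNormalizer, Subgroup.mem_normalizer_iff]
  intro y
  constructor
  · exact h x hx y
  · intro hy
    have := h x⁻¹ (H.inv_mem hx) _ hy
    simpa [mul_assoc] using this

theorem RData.root_of_mem [Nonempty ι] {H R : Subgroup (GL ι F)} {r : ℕ} (h : RData H R r)
    {x : GL ι F} (hx : x ∈ R) {c : Fˣ} (hc : (x : Matrix ι ι F) = (c : F) • 1) :
    (c : F) ^ (r * Nat.gcd 2 r) = 1 := by
  have h1 : x = scHom ι F c := by
    apply Units.ext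
    rw [hc, scHom_coe]
  have h2 : c ^ (r * Nat.gcd 2 r) = 1 := by
    apply scHom_injective (ι := ι)
    rw [map_pow, map_one, ← h1]
    exact h.exp x hx
  have := congrArg Units.val h2
  simpa using this

theorem unitary_branch [Fintype F] {n : ℕ} (hn : 3 ≤ n) {H R : Subgroup (GL (Fin n) F)} {r : ℕ}
    (h : RData H R r) (hchar : (Nat.card R : F) ≠ 0) (σ : F ≃+* F)
    (hne : σ ≠ RingEquiv.refl F) (hinv : ∀ a, σ (σ a) = a)
    (hσ : ∀ c : F, c ^ (r * Nat.gcd 2 r) = 1 → c * σ c = 1) : Cls n H := by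
  have : Nonempty (Fin n) := ⟨⟨0, by omega⟩⟩
  obtain ⟨G, hG, hfix⟩ := Cfsg.Agent.Lib.Helper96.Asch.exists_invariant_gram R h.comm h.envTop
    hchar (σ : F →+* F) (by
      rintro c ⟨x, hx, hxc⟩
      exact hσ _ (RData.root_of_mem h hx hxc))
  obtain ⟨f, hf, hfix'⟩ := Cfsg.Agent.Lib.Helper55.Asch.exists_unitary_form R h.envTop σ hne hinv
    G hG hfix
  exact Or.inr (Or.inr (Or.inr (Or.inr (Or.inr (Or.inr (Or.inr (Or.inr (Or.inl
    ⟨σ, f, hf,
      Cfsg.Agent.Lib.Helper55.Asch.sim_of_fixes_unitary H R h.nrm h.envTop σ f hf hfix'⟩))))))))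

theorem four_dvd_sq_sub_one {p : ℕ} (hp : Odd p) : 4 ∣ p ^ 2 - 1 := by
  obtain ⟨k, rfl⟩ := hp
  have h1 : (2 * k + 1) ^ 2 - 1 = 4 * (k * (k + 1)) := by
    have : (2 * k + 1) ^ 2 = 4 * (k * (k + 1)) + 1 := by ring
    rw [this, Nat.add_sub_cancel]
  rw [h1]
  exact Dvd.intro _ rfl

theorem caseB [Fintype F] {n : ℕ} (hn : 3 ≤ n) {H R : Subgroup (GL (Fin n) F)} {r : ℕ}
    (h : RData H R r) {p e : ℕ} (hp : p.Prime) [CharP F p] (hF : Fintype.card F = p ^ e)
    (ζ : F) (hζ : IsPrimitiveRoot ζ (r * Nat.gcd 2 r))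
    (hz : Nat.card (R ⊓ scalars (Fin n) F : Subgroup (GL (Fin n) F)) = r * Nat.gcd 2 r) :
    Cls n H := by
  classical
  have hι : 2 ≤ Fintype.card (Fin n) := by rw [Fintype.card_fin]; omega
  obtain ⟨hrp, hcardR⟩ := RData.char_ne hι h p
  obtain ⟨m, hm1, hnm, hcard⟩ := RData.card_index hι h
  have hcen := RData.card_center h
  have hkpos : 0 < r * Nat.gcd 2 r :=
    Nat.mul_pos h.prime.pos (Nat.gcd_pos_of_pos_left _ (by norm_num))
  have hζ0 : ζ ≠ 0 := hζ.ne_zero hkpos.ne'
  have hzdvd : r * Nat.gcd 2 r ∣ p ^ e - 1 := by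
    apply hζ.dvd_of_pow_eq_one
    rw [← hF]
    exact FiniteField.pow_card_sub_one_eq_one ζ hζ0
  by_cases hmin : IsMinimalFieldFor (r * Nat.gcd 2 r) p e F
  · by_cases he : Even e
    · -- unitary
      have hz1 : (r * Nat.gcd 2 r).Prime ∨ r * Nat.gcd 2 r = 4 := by
        by_cases hr2 : r = 2
        · right; subst hr2; norm_num
        · left; rw [gcd_two_of_ne h.prime hr2, mul_one]; exact h.prime
      have hz2 : r * Nat.gcd 2 r ≠ 2 := by
        by_cases hr2 : r = 2
        · subst hr2; norm_num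
        · rw [gcd_two_of_ne h.prime hr2, mul_one]; exact hr2
      obtain ⟨σ, hne, hinv, hσ⟩ := exists_involution_of_minimal hmin he hz1 hz2
      exact unitary_branch hn h hcardR σ hne hinv hσ
    · -- class 6
      refine Or.inr (Or.inr (Or.inr (Or.inr (Or.inr (Or.inl
        ⟨r, m, R, ⟨Cfsg.Agent.Lib.Helper12.Asch.RData.sympType hι h,
          Cfsg.Agent.Lib.Helper96.Asch.absIrr_of_env_top h.envTop,
          p, e, hrp, by rw [hcen, hz]; exact hmin, ?_⟩, hm1, by rw [← hnm, Fintype.card_fin],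
          le_subgroupNormalizer h.nrm⟩)))))
      by_cases hr2 : r = 2
      · subst hr2
        right; left
        have hk4 : 2 * Nat.gcd 2 2 = 4 := by norm_num
        rw [hk4] at hz hmin
        have hpodd : Odd p := hp.eq_two_or_odd'.resolve_left (fun h2 => hrp h2.symm)
        have he1 : e = 1 := by
          have he2 : e ≤ 2 := by
            by_contra hlt
            exact hmin.2.2.2.2 2 (by norm_num) (by omega) (four_dvd_sq_sub_one hpodd)
          have he0 : e ≠ 0 := fun h0 => he (h0 ▸ Even.zero)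
          have he2' : e ≠ 2 := fun h0 => he (h0 ▸ even_two)
          omega
        refine ⟨rfl, he1, by rw [hcen, hz], ?_, m, ?_⟩
        · rw [hnm]
          rw [Fintype.card_fin] at hnm
          have hm2 : 2 ≤ m := by
            by_contra hlt
            have : m = 1 := by omega
            rw [this, pow_one] at hnm
            omega
          calc 4 = 2 ^ 2 := by norm_num
            _ ≤ 2 ^ m := Nat.pow_le_pow_right (by norm_num) hm2
        · rw [hcard, hz, pow_add]
          ring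
      · left
        rw [gcd_two_of_ne h.prime hr2, mul_one] at hz
        refine ⟨h.prime.eq_two_or_odd'.resolve_left hr2, Nat.not_even_iff_odd.1 he,
          by rw [hcen, hz], m, hm1, ?_⟩
        rw [hcard, hz, pow_add]
        ring
  · -- class 5
    obtain ⟨F₀, hF₀, hroots⟩ := exists_subfield_of_not_minimal hp hF hzdvd hmin
    have hreal := Cfsg.Agent.Lib.Helper58.Asch.monomial_realisable R h.comm h.envTop
      (r * Nat.gcd 2 r) h.exp F₀ hroots ⟨ζ, hζ⟩
    obtain ⟨F₁, r', P, hr', hcard', hle⟩ :=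
      Cfsg.Agent.Lib.Helper35.Asch.subfield_of_realisable H R h.nrm h.envTop F₀ hF₀ hreal
    exact Or.inr (Or.inr (Or.inr (Or.inr (Or.inl ⟨F₁, r', P, hr', hcard', hle⟩))))

/-- C5 -/
theorem c6_of_RData [Fintype F] {n : ℕ} (hn : 3 ≤ n) {H R : Subgroup (GL (Fin n) F)} {r : ℕ}
    (h : RData H R r) : Cls n H := by
  classical
  have hι : 2 ≤ Fintype.card (Fin n) := by rw [Fintype.card_fin]; omega
  have : Nonempty (Fin n) := ⟨⟨0, by omega⟩⟩
  obtain ⟨p, hpchar⟩ := CharP.exists F
  have hp : p.Prime := CharP.char_is_prime F p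
  have := Fact.mk hp
  obtain ⟨e, hF⟩ : ∃ e : ℕ, Fintype.card F = p ^ e := by
    obtain ⟨e, -, he⟩ := FiniteField.card F p
    exact ⟨e, he⟩
  obtain ⟨hrp, hcardR⟩ := RData.char_ne hι h p
  by_cases hr2 : r = 2
  · subst hr2
    have h2 : (2 : F) ≠ 0 := RData.two_ne_zero hι h
    obtain ⟨hc4, hc2⟩ := RData.card_sc_two hι h
    have hk4 : 2 * Nat.gcd 2 2 = 4 := by norm_num
    by_cases hi : ∃ i : F, i * i = -1
    · have hz := hc4 hi
      obtain ⟨i, hi⟩ := hi
      exact caseB hn h hp hF i (by rw [hk4]; exact isPrimitiveRoot_four h2 hi)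
        (by rw [hk4]; exact hz)
    · obtain ⟨G, hG, hfix⟩ := Cfsg.Agent.Lib.Helper96.Asch.exists_invariant_gram R h.comm
        h.envTop hcardR (RingHom.id F) (by
          rintro c ⟨x, hx, hxc⟩
          have h1 := RData.root_of_mem h hx hxc
          rw [hk4] at h1
          exact sq_eq_one_of_pow_four hi h1)
      have hfix' : ∀ x ∈ R, (x : Matrix (Fin n) (Fin n) F)ᵀ * G * (x : Matrix (Fin n) (Fin n) F)
          = G := by
        intro x hx
        have h1 := hfix x hx
        have h3 : (x : Matrix (Fin n) (Fin n) F).map (RingHom.id F) = x := by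
          ext a b; rfl
        rwa [h3] at h1
      rcases Cfsg.Agent.Lib.Helper55.Asch.exists_bilinear_form h2 R h.envTop G hG hfix' with
        ⟨f, hf, hff⟩ | ⟨Q, hQ, hQf⟩
      · have hev := Cfsg.Agent.Lib.Helper55.Asch.even_card_of_symplectic f hf
        rw [Fintype.card_fin] at hev
        have h4 : 4 ≤ n := by
          obtain ⟨k, hk⟩ := hev
          omega
        exact Or.inr (Or.inr (Or.inr (Or.inr (Or.inr (Or.inr (Or.inr (Or.inl
            ⟨f, hf, hev, h4,
              Cfsg.Agent.Lib.Helper55.Asch.sim_of_fixes_bilin H R h.nrm h.envTop f hf.bilinear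
                hf.nondegenerate hff⟩)))))))
      · have hodd : Odd (Fintype.card F) := by
          rw [hF]
          exact (hp.eq_two_or_odd'.resolve_left (fun h2 => hrp h2.symm)).pow
        exact Or.inr (Or.inr (Or.inr (Or.inr (Or.inr (Or.inr (Or.inr (Or.inr (Or.inr
            ⟨Q, hQ, hodd,
              Cfsg.Agent.Lib.Helper55.Asch.sim_of_fixes_quad h2 H R h.nrm h.envTop Q hQ hQf⟩
            ))))))))
  · have hz := RData.card_sc_odd hι h hr2
    obtain ⟨γ, hγ⟩ := RData.exists_primitive_odd hι h hr2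
    have hg := gcd_two_of_ne h.prime hr2
    exact caseB hn h hp hF (γ : F) (by rw [hg, mul_one]; exact IsPrimitiveRoot.coe_units_iff.2 hγ)
      (by rw [hg, mul_one]; exact hz)

end Cfsg.Agent.Lib.Helper91.Asch
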