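import Cfsg.Agent.Lib.Helper13.Asch.Defs2

set_option autoImplicit false

namespace Cfsg.Agent.Lib.Helper91.Asch

open Cfsg Cfsg.Geo Matrix Cfsg.Agent.Lib.Helper13.Asch
open scoped Kronecker MatrixGroups

variable {ι : Type} [Fintype ι] [DecidableEq ι] {F : Type*} [Field F]

/-- in a field with `p ^ e` elements not every element satisfies `x ^ (p ^ d) = x`, `0 < d < e`. -/
theorem exists_pow_ne [Fintype F] {p e d : ℕ} (hp : p.Prime) (hF : Fintype.card F = p ^ e)
    (hd0 : 0 < d) (hd : d < e) : ∃ x : F, x ^ (p ^ d) ≠ x := by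
  classical
  by_contra hcon
  push Not at hcon
  obtain ⟨g, hg⟩ := IsCyclic.exists_generator (α := Fˣ)
  have h1 : orderOf g = p ^ e - 1 := by
    rw [orderOf_eq_card_of_forall_mem_zpowers hg, Nat.card_eq_fintype_card, Fintype.card_units, hF]
  have hpos : 1 < p ^ d := Nat.one_lt_pow hd0.ne' hp.one_lt
  have h2 : g ^ (p ^ d - 1) = 1 := by
    apply Units.ext
    have h3 := hcon (g : F)
    have h4 : (g : F) ^ (p ^ d - 1) * (g : F) = 1 * (g : F) := by
      rw [← pow_succ, Nat.sub_add_cancel hpos.le, h3, one_mul]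
    have h5 := mul_right_cancel₀ g.ne_zero h4
    simpa using h5
  have h3 : p ^ e - 1 ∣ p ^ d - 1 := by
    rw [← h1]; exact orderOf_dvd_of_pow_eq_one h2
  have h4 : p ^ d < p ^ e := Nat.pow_lt_pow_right hp.one_lt hd
  have := Nat.le_of_dvd (by omega) h3
  omega

/-- A1 -/
theorem exists_subfield_of_not_minimal [Fintype F] {p e z : ℕ} (hp : p.Prime) [CharP F p]
    (hF : Fintype.card F = p ^ e) (hz : z ∣ p ^ e - 1) (hnot : ¬ IsMinimalFieldFor z p e F) :
    ∃ F₀ : Subfield F, F₀ ≠ ⊤ ∧ ∀ c : F, c ^ z = 1 → c ∈ F₀ := by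
  have : Fact p.Prime := ⟨hp⟩
  obtain ⟨d, hd0, hde, hzd⟩ : ∃ d : ℕ, 0 < d ∧ d < e ∧ z ∣ p ^ d - 1 := by
    by_contra hcon
    push Not at hcon
    exact hnot ⟨hp, inferInstance, hF, hz, hcon⟩
  refine ⟨RingHom.eqLocusField (iterateFrobenius F p d) (RingHom.id F), ?_, ?_⟩
  · intro htop
    obtain ⟨x, hx⟩ := exists_pow_ne hp hF hd0 hde
    apply hx
    have h1 : x ∈ RingHom.eqLocusField (iterateFrobenius F p d) (RingHom.id F) := by
      rw [htop]; trivial
    have h2 : iterateFrobenius F p d x = RingHom.id F x := h1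
    rwa [iterateFrobenius_def, RingHom.id_apply] at h2
  · intro c hc
    show iterateFrobenius F p d c = RingHom.id F c
    rw [iterateFrobenius_def, RingHom.id_apply]
    obtain ⟨k, hk⟩ := hzd
    have hpos : 1 ≤ p ^ d := Nat.one_le_pow _ _ hp.pos
    have h1 : p ^ d = z * k + 1 := by omega
    rw [h1, pow_succ, pow_mul, hc, one_pow, one_mul]

end Cfsg.Agent.Lib.Helper91.Asch
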